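import Cfsg.Agent.H209.EPX.Defs
import Cfsg.Prelude.Def_Solvable

/-!
# S5745, the uniform step of TWO and AFF (helper807)

`N` a normal subgroup of the stabiliser `H` with `N ⊓ cj x H = ⊥` for all `x ∉ H` (TWO: both minimal normal subgroups;
AFF: `X`). Then `|G : H| ≡ 1` modulo `|N|` (`index_modEq_of_inf`), so `H` contains a Sylow `r`-subgroup of `G` for every
prime `r` dividing `|N|` (`EPT2.not_dvd_index`, `EPA2.not_dvd_index`), `C_G(x) ≤ H` for `1 ≠ x ∈ N` (`EPT2.cent_le`,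
`EPA2.cent_le`) and `N_G(K) ≤ H` for `1 ≠ K ≤ N` (`EPT2.norm_le`, `EPA2.norm_le`). `EPT2.pCore` : `O_p(H) = 1`.
-/

set_option autoImplicit false
set_option linter.unusedSectionVars false

namespace Cfsg.Agent.H807.EPX

open MulAction Subgroup Cfsg.Agent.H284 Cfsg.Agent.H209.EPX
open scoped commutatorElement

variable {G : Type*} [Group G] [Finite G] {H : Subgroup G}

/-- `|G : H| ≡ 1` modulo `|N|` if `N ≤ H` meets no other conjugate of `H` -/
theorem index_modEq_of_inf {N : Subgroup G} (hN : N ≤ H) (hinf : ∀ x ∉ H, N ⊓ cj x H = ⊥) :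
    H.index ≡ 1 [MOD Nat.card N] := by
  classical
  have hst : ∀ x : G, stabilizer G (x : G ⧸ H) = cj x H := by
    intro x
    have h1 : (x : G ⧸ H) = x • ((1 : G) : G ⧸ H) := by
      rw [MulAction.Quotient.smul_coe, smul_eq_mul, mul_one]
    rw [h1, stab_smul, MulAction.stabilizer_quotient]
  have hfree : ∀ (x : G), x ∉ H → ∀ k : N, k • (x : G ⧸ H) = x → k = 1 := by
    intro x hx k hk
    have h1 : (k : G) ∈ N ⊓ cj x H := by
      refine ⟨k.2, ?_⟩
      rw [← hst]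
      exact hk
    rw [hinf x hx, mem_bot] at h1
    exact Subtype.ext h1
  let Z : SubMulAction N (G ⧸ H) :=
    { carrier := {p | p ≠ ((1 : G) : G ⧸ H)}
      smul_mem' := by
        intro k p hp e
        apply hp
        have h1 : k⁻¹ • (k • p) = k⁻¹ • ((1 : G) : G ⧸ H) := by rw [e]
        rw [inv_smul_smul] at h1
        rw [h1]
        have h2 : ((k⁻¹ : N) : G) ∈ stabilizer G ((1 : G) : G ⧸ H) := by
          rw [MulAction.stabilizer_quotient]
          exact hN (k⁻¹).2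
        exact h2 }
  have hZfree : ∀ (k : N) (z : Z), k • z = z → k = 1 := by
    rintro k ⟨p, hp⟩ e
    induction p using QuotientGroup.induction_on with
    | H x =>
      apply hfree x _ k (Subtype.ext_iff.1 e)
      intro hx
      apply hp
      rw [eq_comm, QuotientGroup.eq, inv_one, one_mul]
      exact hx
  have h1 : Nat.card N ∣ Nat.card Z := by
    have e1 : Nat.card Z = Nat.card (Quotient (orbitRel N Z)) * Nat.card N := by
      rw [← Nat.card_prod]
      apply Nat.card_congr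
      refine (selfEquivSigmaOrbits N Z).trans ?_
      refine (Equiv.sigmaCongrRight fun ω => ?_).trans (Equiv.sigmaEquivProd _ _)
      refine (orbitEquivQuotientStabilizer N ω.out).trans ?_
      have hb : stabilizer N ω.out = ⊥ := by
        rw [Subgroup.eq_bot_iff_forall]
        intro k hk
        exact hZfree k _ hk
      rw [hb]
      exact QuotientGroup.quotientBot.toEquiv
    rw [e1]
    exact dvd_mul_left _ _
  have h2 : H.index = Nat.card Z + 1 := by
    have e1 : H.index = Nat.card (G ⧸ H) := rfl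
    rw [e1]
    have e2 : Nat.card Z = Nat.card {p : G ⧸ H // p ≠ ((1 : G) : G ⧸ H)} := rfl
    rw [e2]
    have := Fintype.ofFinite (G ⧸ H)
    rw [Nat.card_eq_fintype_card, Nat.card_eq_fintype_card, Fintype.card_subtype_compl, Fintype.card_subtype_eq]
    have : 0 < Fintype.card (G ⧸ H) := Fintype.card_pos_iff.2 ⟨((1 : G) : G ⧸ H)⟩
    omega
  rw [h2]
  have h3 : Nat.card Z ≡ 0 [MOD Nat.card N] := (Nat.modEq_zero_iff_dvd).2 h1
  exact h3.add_right 1

theorem not_dvd_index_of_inf {N : Subgroup G} (hN : N ≤ H) (hinf : ∀ x ∉ H, N ⊓ cj x H = ⊥) {r : ℕ} (hr : r.Prime)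
    (hd : r ∣ Nat.card N) : ¬ r ∣ H.index := by
  intro h1
  have h2 := (index_modEq_of_inf hN hinf).of_dvd hd
  have h3 : H.index ≡ 0 [MOD r] := (Nat.modEq_zero_iff_dvd).2 h1
  have h4 : 1 ≡ 0 [MOD r] := h2.symm.trans h3
  rw [Nat.modEq_zero_iff_dvd, Nat.dvd_one] at h4
  exact hr.one_lt.ne' h4

theorem norm_le_of_inf {N : Subgroup G} (hN : N ≤ H) (hinf : ∀ x ∉ H, N ⊓ cj x H = ⊥) {K : Subgroup G} (hK : K ≤ N)
    (hne : K ≠ ⊥) {g : G} (hg : ∀ k ∈ K, g * k * g⁻¹ ∈ K) : g ∈ H := by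
  by_contra hgH
  apply hne
  rw [Subgroup.eq_bot_iff_forall]
  intro k hk
  have h1 : g * k * g⁻¹ ∈ N ⊓ cj g H := ⟨hK (hg k hk), conj_mem_cj (hN (hK hk))⟩
  rw [hinf g hgH, mem_bot, mul_inv_eq_one] at h1
  exact mul_eq_left.1 h1

theorem cent_le_of_inf {N : Subgroup G} (hN : N ≤ H) (hinf : ∀ x ∉ H, N ⊓ cj x H = ⊥) {a : G} (ha : a ∈ N)
    (ha1 : a ≠ 1) : Subgroup.centralizer {a} ≤ H := by
  intro g hg
  apply norm_le_of_inf hN hinf (K := zpowers a) (by rwa [zpowers_le]) (by rwa [Ne, zpowers_eq_bot])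
  intro k hk
  obtain ⟨i, rfl⟩ := mem_zpowers_iff.1 hk
  have h1 : Commute g a := mem_centralizer_singleton_iff.1 hg
  rw [(h1.zpow_right i).eq, mul_inv_cancel_right]
  exact hk

section

variable {N N' : Subgroup G} {T : Type} [Group T] {k : ℕ} {e : N ≃* (Fin k → T)}

theorem EPT2.inf (h : EPT2 H N N' e) : ∀ x ∉ H, N ⊓ cj x H = ⊥ := fun _ hx =>
  h.ep.comm_inf h.m1.le h.m1.nrm h.m2.le h.m2.nrm h.m2.ne h.comm hx

theorem EPT2.inf' (h : EPT2 H N N' e) : ∀ x ∉ H, N' ⊓ cj x H = ⊥ := fun _ hx =>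
  h.ep.comm_inf h.m2.le h.m2.nrm h.m1.le h.m1.nrm h.m1.ne (fun a ha b hb => (h.comm b hb a ha).symm) hx

/-- `|N'| = |N|` -/
theorem EPT2.card_eq (h : EPT2 H N N' e) : Nat.card N = Nat.card N' :=
  h.ep.card_comm h.m1.le h.m1.nrm h.m1.ne h.m2.le h.m2.nrm h.m2.ne h.comm h.ep.max.1

theorem EPT2.index_modEq (h : EPT2 H N N' e) : H.index ≡ 1 [MOD Nat.card N] :=
  index_modEq_of_inf h.m1.le (EPT2.inf h)

/-- `H` contains a Sylow `r`-subgroup of `G` for every prime `r` dividing `|N|` -/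
theorem EPT2.not_dvd_index (h : EPT2 H N N' e) {r : ℕ} (hr : r.Prime) (hd : r ∣ Nat.card N) : ¬ r ∣ H.index :=
  not_dvd_index_of_inf h.m1.le (EPT2.inf h) hr hd

theorem EPT2.norm_le (h : EPT2 H N N' e) {K : Subgroup G} (hK : K ≤ N) (hne : K ≠ ⊥) {g : G}
    (hg : ∀ k ∈ K, g * k * g⁻¹ ∈ K) : g ∈ H := norm_le_of_inf h.m1.le (EPT2.inf h) hK hne hg

theorem EPT2.cent_le (h : EPT2 H N N' e) {a : G} (ha : a ∈ N) (ha1 : a ≠ 1) : Subgroup.centralizer {a} ≤ H :=
  cent_le_of_inf h.m1.le (EPT2.inf h) ha ha1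

theorem EPT2.cent_le' (h : EPT2 H N N' e) {a : G} (ha : a ∈ N') (ha1 : a ≠ 1) : Subgroup.centralizer {a} ≤ H :=
  cent_le_of_inf h.m2.le (EPT2.inf' h) ha ha1

/-- `|N| = |T| ^ k` -/
theorem EPT2.card (_h : EPT2 H N N' e) : Nat.card N = Nat.card T ^ k := by
  rw [Nat.card_congr e.toEquiv, Nat.card_fun, Nat.card_eq_fintype_card (α := Fin k), Fintype.card_fin]

/-- a normal solvable subgroup of `H` is trivial -/
theorem EPT2.eq_bot_of_solvable (h : EPT2 H N N' e) {P : Subgroup G} (hP : NIn P H) (hs : Group.IsSolvable P) :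
    P = ⊥ := by
  have key : ∀ {L : Subgroup G}, MinN L H → (∃ a ∈ L, ∃ b ∈ L, a * b ≠ b * a) → P ⊓ L = ⊥ := by
    intro L hL hnab
    rcases hL.min (P ⊓ L) inf_le_right ⟨inf_le_left.trans hP.le, fun g hg k hk =>
      ⟨hP.nrm g hg k (mem_inf.1 hk).1, hL.nrm g hg k (mem_inf.1 hk).2⟩⟩ with h1 | h1
    · exact h1
    · exfalso
      have hLP : L ≤ P := by rw [← h1]; exact inf_le_left
      have hLs : Group.IsSolvable L :=
        Group.isSolvable_of_isSolvable_injective (f := Subgroup.inclusion hLP) (Subgroup.inclusion_injective hLP)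
      -- the commutator subgroup of `L`
      have hLn : Nontrivial L := (Subgroup.nontrivial_iff_ne_bot L).2 hL.ne
      have hlt : commutator L < ⊤ := Group.IsSolvable.commutator_lt_top_of_nontrivial L
      have hch : (commutator L).Characteristic := inferInstance
      rcases hL.min ((commutator L).map L.subtype) (by rintro _ ⟨y, _, rfl⟩; exact y.2) ⟨by
        rintro _ ⟨y, _, rfl⟩; exact hL.le y.2, by
        rintro g hg _ ⟨y, hy, rfl⟩
        -- conjugation by `g` on `L`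
        have hgL : ∀ n ∈ L, g * n * g⁻¹ ∈ L := fun n hn => hL.nrm g hg n hn
        have hgL' : ∀ n ∈ L, g⁻¹ * n * g ∈ L := fun n hn => by
          have := hL.nrm g⁻¹ (inv_mem hg) n hn
          rwa [inv_inv] at this
        let γ : L ≃* L :=
          { toFun := fun n => ⟨g * n * g⁻¹, hgL n n.2⟩
            invFun := fun n => ⟨g⁻¹ * n * g, hgL' n n.2⟩
            left_inv := fun n => Subtype.ext (by show g⁻¹ * (g * n * g⁻¹) * g = n; group)
            right_inv := fun n => Subtype.ext (by show g * (g⁻¹ * n * g) * g⁻¹ = n; group)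
            map_mul' := fun a b => Subtype.ext (by show g * (a * b) * g⁻¹ = g * a * g⁻¹ * (g * b * g⁻¹); group) }
        refine ⟨γ y, ?_, rfl⟩
        have h2 := Subgroup.characteristic_iff_map_eq.1 hch γ
        rw [← h2]
        exact ⟨y, hy, rfl⟩⟩ with h2 | h2
      · rw [Subgroup.map_eq_bot_iff_of_injective _ L.subtype_injective] at h2
        obtain ⟨a, ha, b, hb, hab⟩ := hnab
        apply hab
        have h3 : ⁅(⟨a, ha⟩ : L), ⟨b, hb⟩⁆ ∈ commutator L := commutator_mem_commutator (mem_top _) (mem_top _)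
        rw [h2, mem_bot, commutatorElement_eq_one_iff_mul_comm] at h3
        exact congrArg Subtype.val h3
      · apply hlt.ne
        rw [Subgroup.eq_top_iff']
        intro y
        have h3 : (y : G) ∈ (commutator L).map L.subtype := by rw [h2]; exact y.2
        obtain ⟨z, hz, he⟩ := h3
        have : z = y := Subtype.ext he
        rwa [← this]
  have hnab : ∃ a ∈ N, ∃ b ∈ N, a * b ≠ b * a := by
    obtain ⟨a, b, hab⟩ := h.nab
    refine ⟨e.symm fun _ => a, (e.symm fun _ => a).2, e.symm fun _ => b, (e.symm fun _ => b).2, fun he => hab ?_⟩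
    have h1 : (e.symm fun _ => a) * (e.symm fun _ => b) = (e.symm fun _ => b) * (e.symm fun _ => a) := Subtype.ext he
    rw [← map_mul, ← map_mul] at h1
    exact congrFun (e.symm.injective h1) ⟨0, h.pos⟩
  have h1 := key h.m1 hnab
  have h2 := key h.m2 h.nab'
  have hcomm : ∀ {L : Subgroup G}, MinN L H → P ⊓ L = ⊥ → ∀ c ∈ P, ∀ a ∈ L, c * a = a * c := by
    intro L hL hPL c hc a ha
    have h3 : c * a * c⁻¹ * a⁻¹ ∈ P ⊓ L := by
      refine ⟨?_, L.mul_mem (hL.nrm c (hP.le hc) a ha) (L.inv_mem ha)⟩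
      have e1 : c * a * c⁻¹ * a⁻¹ = c * (a * c⁻¹ * a⁻¹) := by group
      rw [e1]
      exact P.mul_mem hc (hP.nrm a (hL.le ha) _ (P.inv_mem hc))
    rw [hPL, mem_bot, mul_inv_eq_one, mul_inv_eq_iff_eq_mul] at h3
    exact h3
  rw [eq_bot_iff, ← h2]
  intro c hc
  exact ⟨hc, h.cen c (hcomm h.m1 h1 c hc)⟩

/-- `O_p(H) = 1` -/
theorem EPT2.pCore (h : EPT2 H N N' e) (p : ℕ) [Fact p.Prime] : Cfsg.pCore p H = ⊥ := by
  unfold Cfsg.pCore
  rw [sSup_eq_bot]
  rintro P ⟨hP, hp⟩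
  have h1 : P.map H.subtype = ⊥ := by
    refine EPT2.eq_bot_of_solvable h ⟨?_, ?_⟩ ?_
    · rintro _ ⟨y, _, rfl⟩
      exact y.2
    · rintro g hg _ ⟨y, hy, rfl⟩
      exact ⟨_, hP.conj_mem y hy ⟨g, hg⟩, rfl⟩
    · have h2 : IsPGroup p (P.map H.subtype) := hp.map H.subtype
      have := h2.isNilpotent
      infer_instance
  rwa [Subgroup.map_eq_bot_iff_of_injective _ H.subtype_injective] at h1

end

section

variable {X : Subgroup G}

theorem EPA2.inf (h : EPA2 H X) : ∀ x ∉ H, X ⊓ cj x H = ⊥ := fun _ hx =>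
  h.ep.ab_inf h.m.le h.m.nrm h.m.ne h.ab hx

theorem EPA2.index_modEq (h : EPA2 H X) : H.index ≡ 1 [MOD Nat.card X] :=
  index_modEq_of_inf h.m.le (EPA2.inf h)

/-- `H` contains a Sylow `s`-subgroup of `G` -/
theorem EPA2.not_dvd_index (h : EPA2 H X) {r : ℕ} (hr : r.Prime) (hd : r ∣ Nat.card X) : ¬ r ∣ H.index :=
  not_dvd_index_of_inf h.m.le (EPA2.inf h) hr hd

theorem EPA2.norm_le (h : EPA2 H X) {K : Subgroup G} (hK : K ≤ X) (hne : K ≠ ⊥) {g : G}
    (hg : ∀ k ∈ K, g * k * g⁻¹ ∈ K) : g ∈ H := norm_le_of_inf h.m.le (EPA2.inf h) hK hne hg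

theorem EPA2.cent_le (h : EPA2 H X) {a : G} (ha : a ∈ X) (ha1 : a ≠ 1) : Subgroup.centralizer {a} ≤ H :=
  cent_le_of_inf h.m.le (EPA2.inf h) ha ha1

/-- `C_G(X) = X` -/
theorem EPA2.cent (h : EPA2 H X) : Subgroup.centralizer (X : Set G) = X := by
  apply le_antisymm
  · intro c hc
    rw [mem_centralizer_iff] at hc
    have hc' : ∀ a ∈ X, c * a = a * c := fun a ha => (hc a ha).symm
    exact h.ep.ab_cent h.m.le h.m.nrm h.m.ne h.ab (h.ep.cent_le h.m.toNIn h.m.ne hc') hc'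
  · intro a ha
    rw [mem_centralizer_iff]
    intro b hb
    exact h.ab b hb a ha

end

end Cfsg.Agent.H807.EPX
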