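import Cfsg.Agent.H807.EPX.TwoOwn
import Cfsg.Agent.H542.EPX.Cells
import Cfsg.Agent.S0205
import Cfsg.Agent.S0336

/-!
# S5745, case TWO in characteristic 2 and 3 (helper807)

`two_of_chev_two` : `G ∈ Chev(2)` has no stabiliser of type TWO; `EPT2.suzuki_of_three` : `G ∈ Chev(3)`: `T` has the
order of a Suzuki group.
-/

set_option autoImplicit false

namespace Cfsg.Agent.H807.EPX

open Cfsg.Agent.H209.EPX

section

variable {G : Type*} [Group G] [Finite G] {H N N' : Subgroup G} {T : Type} [Group T] {k : ℕ} {e : N ≃* (Fin k → T)}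

theorem EPT2.finite (h : EPT2 H N N' e) : Finite T := by
  have : Finite (Fin k → T) := Finite.of_equiv _ e.toEquiv
  exact Finite.of_injective _ (Pi.mulSingle_injective (M := fun _ : Fin k => T) (⟨0, h.pos⟩ : Fin k))

theorem EPT2.two_dvd (h : EPT2 H N N' e) : 2 ∣ Nat.card T := by
  have := EPT2.finite h
  have := h.simple
  by_contra hd
  have h1 : Group.IsSolvable T := Cfsg.Agent.S0205.result (Nat.not_even_iff_odd.1 fun he => hd he.two_dvd)
  obtain ⟨a, b, hab⟩ := h.nab
  exact hab (IsSimpleGroup.comm_iff_isSolvable.2 h1 a b)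

theorem EPT2.false_two (hG : Cfsg.IsChevSimple 2 G) (h : EPT2 H N N' e) : False :=
  have : Fact (Nat.Prime 2) := ⟨Nat.prime_two⟩
  EPT2.own hG h (EPT2.two_dvd h)

theorem EPT2.suzuki_of_three (hG : Cfsg.IsChevSimple 3 G) (h : EPT2 H N N' e) : Cfsg.IsSuzuki T := by
  have := EPT2.finite h
  have := h.simple
  have : Fact (Nat.Prime 3) := ⟨Nat.prime_three⟩
  exact Cfsg.Agent.S0336.result h.nab (EPT2.own hG h)

end

theorem two_of_chev_two (G : Type) [Group G] [Finite G] (hG : Cfsg.IsChevSimple 2 G) : Cfsg.Agent.H542.EPX.Two G :=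
  fun _ _ _ _ _ _ _ h => EPT2.false_two hG h

end Cfsg.Agent.H807.EPX
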