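import Cfsg.Agent.H807.EPX.Two
import Cfsg.Agent.H248.DichChev

/-!
# S5745, case TWO, own characteristic (helper807)

`EPT2.own` : `G ∈ Chev(p)` simple, `EPT2 H N N' e` : `p` does not divide `|T|` (`H` would contain a Sylow `p`-subgroup of
`G` and have `O_p(H) = 1`, so `H = G` by S2936).
-/

set_option autoImplicit false

namespace Cfsg.Agent.H807.EPX

open Cfsg.Agent.H209.EPX

variable {G : Type*} [Group G] [Finite G] {H N N' : Subgroup G} {T : Type} [Group T] {k : ℕ} {e : N ≃* (Fin k → T)}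

theorem EPT2.own {p : ℕ} [Fact p.Prime] (hG : Cfsg.IsChevSimple p G) (h : EPT2 H N N' e) : ¬ p ∣ Nat.card T := by
  intro hd
  have hN : p ∣ Nat.card N := by
    rw [EPT2.card h]
    exact hd.trans (dvd_pow_self _ h.pos.ne')
  exact h.ep.max.1 ((Cfsg.Agent.H248.Ovg.dich_of_chev hG).eq_top H (EPT2.pCore h p)
    (EPT2.not_dvd_index h (Fact.out : p.Prime) hN))

/-! ### the families -/

theorem chev_e8 (F : Type) [Field F] [Fintype F] (p : ℕ) [CharP F p] : Cfsg.IsChevSimple p ↥(Cfsg.Lie.chevE8.group F) :=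
  Or.inl (Or.inr (Or.inr (Or.inr (Or.inr (Or.inr (Or.inr (Or.inl ⟨F, inferInstance, inferInstance, inferInstance,
    Or.inr (Or.inr (Or.inr (Or.inr ⟨MulEquiv.refl _⟩)))⟩)))))))

theorem chev_e7 (F : Type) [Field F] [Fintype F] (p : ℕ) [CharP F p] : Cfsg.IsChevSimple p ↥(Cfsg.Lie.chevE7.group F) :=
  Or.inl (Or.inr (Or.inr (Or.inr (Or.inr (Or.inr (Or.inr (Or.inl ⟨F, inferInstance, inferInstance, inferInstance,
    Or.inr (Or.inr (Or.inr (Or.inl ⟨MulEquiv.refl _⟩)))⟩)))))))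

theorem chev_e6 (F : Type) [Field F] [Fintype F] (p : ℕ) [CharP F p] : Cfsg.IsChevSimple p ↥(Cfsg.Lie.chevE6.group F) :=
  Or.inl (Or.inr (Or.inr (Or.inr (Or.inr (Or.inr (Or.inr (Or.inl ⟨F, inferInstance, inferInstance, inferInstance,
    Or.inr (Or.inr (Or.inl ⟨MulEquiv.refl _⟩))⟩)))))))

theorem chev_f4 (F : Type) [Field F] [Fintype F] (p : ℕ) [CharP F p] : Cfsg.IsChevSimple p ↥(Cfsg.Lie.chevF4.group F) :=
  Or.inl (Or.inr (Or.inr (Or.inr (Or.inr (Or.inr (Or.inr (Or.inl ⟨F, inferInstance, inferInstance, inferInstance,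
    Or.inr (Or.inl ⟨MulEquiv.refl _⟩)⟩)))))))

theorem chev_g2 (F : Type) [Field F] [Fintype F] (p : ℕ) [CharP F p] (h3 : 3 ≤ Fintype.card F) :
    Cfsg.IsChevSimple p ↥(Cfsg.Lie.chevG2.group F) :=
  Or.inl (Or.inr (Or.inr (Or.inr (Or.inr (Or.inr (Or.inr (Or.inl ⟨F, inferInstance, inferInstance, inferInstance,
    Or.inl ⟨h3, ⟨MulEquiv.refl _⟩⟩⟩)))))))

theorem chev_te6 (K : Type) [Field K] [Fintype K] (p q : ℕ) [CharP K p] (hq : IsPrimePow q)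
    (hK : Fintype.card K = q ^ 2) : Cfsg.IsChevSimple p ↥(Cfsg.Lie.twistedE6 K q) :=
  Or.inl (Or.inr (Or.inr (Or.inr (Or.inr (Or.inr (Or.inr (Or.inr (Or.inl ⟨K, inferInstance, inferInstance,
    inferInstance, q, hq, Or.inl ⟨hK, ⟨MulEquiv.refl _⟩⟩⟩))))))))

theorem chev_td4 (K : Type) [Field K] [Fintype K] (p q : ℕ) [CharP K p] (hq : IsPrimePow q)
    (hK : Fintype.card K = q ^ 3) : Cfsg.IsChevSimple p ↥(Cfsg.Lie.twistedD4 K q) :=
  Or.inl (Or.inr (Or.inr (Or.inr (Or.inr (Or.inr (Or.inr (Or.inr (Or.inl ⟨K, inferInstance, inferInstance,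
    inferInstance, q, hq, Or.inr ⟨hK, ⟨MulEquiv.refl _⟩⟩⟩))))))))

theorem chev_tits : Cfsg.IsChevSimple 2 Cfsg.Lie.TitsGroup := Or.inr (Or.inl ⟨rfl, Or.inr (Or.inr ⟨MulEquiv.refl _⟩)⟩)

end Cfsg.Agent.H807.EPX
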